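import Mathlib
import Cfsg.Agent.Lib.SuzR3.C1
import Cfsg.Agent.Lib.SuzR3.P.Main
import Cfsg.Agent.Lib.SuzR3.Q.Main
import Cfsg.Agent.Lib.SuzR3.R.Main
import Cfsg.Agent.Lib.MultC.Suz.Link
import Cfsg.Agent.Lib.MultC.Pkg2
import Cfsg.Agent.Lib.Suz.G2
import Cfsg.Agent.Lib.Stein.FieldMap

/-!
# The sporadic Suzuki group as a rank 3 group
-/

set_option autoImplicit false
set_option maxRecDepth 100000

namespace CfsgLib.SuzR3

open CfsgLib.Comput CfsgLib.SubCl CfsgLib.Rank3 MulAction Subgroup Equiv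
open scoped Pointwise

local notation "q" => permG 2496 Q.W
local notation "pq" => finPt 2496

/-- `G₂(4)` on `416 + 2080` points -/
noncomputable abbrev GQ : Subgroup (Perm (Fin 2496)) := cl q Q.top

theorem MQ : SM q 2496 pq sq := Q.M

theorem VQ : WM q sU XU :=
  wm_base Q.M (acts_permG Q.W_ok) GQ (mem_of_inA (j := 27) (Q.inA_top Q.E) (by decide +kernel))
    (fun x hx => Q.base_faith Q.M Q.E x (Q.top_eq Q.E ▸ hx)) q_base

theorem hQ : GQ ⊓ stabilizer _ (pq 416) = cl q Q.L0.hs := by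
  rw [GQ, Q.top_eq Q.E]; exact (Q.good_0 Q.M Q.E).1.stabilizer_eq (Q.M.fixes (by decide +kernel))

theorem kD : KInv GQ (sem 2496 pq DQ) := fun k hk _ hx =>
  MQ.closed_sound (band_eq_true.1 q_D).1 k hk ▸ Set.smul_mem_smul_set hx

theorem kB : KInv GQ (sem 2496 pq BQ) := fun k hk _ hx =>
  MQ.closed_sound (band_eq_true.1 q_D).2 k hk ▸ Set.smul_mem_smul_set hx

theorem mB : pq 416 ∈ sem 2496 pq BQ := (MQ.mem_sem (by norm_num)).2 (by decide +kernel)

theorem aB : Al GQ 604800 (sem 2496 pq BQ) alB :=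
  al_div MQ kB (by norm_num) (card_stab_dvd (c := pq 416) (fun x hx => by
    obtain ⟨k, hk, y, hy, e⟩ := (orb_spec MQ (sub_sing.2 le_rfl) _).2 x (Nat.eq_of_beq_eq_true q_B ▸ hx)
    exact ⟨k, hk, (sem_single pq (by norm_num)).le hy ▸ e⟩) (hQ ▸ Q.card_1 Q.M Q.E)) q_alB

theorem doms : ∀ d ∈ [(DQ, alD), (BQ, alB)], KInv GQ (sem 2496 pq d.1) ∧ Al GQ 604800 (sem 2496 pq d.1) d.2 :=
  List.forall_mem_cons.2 ⟨⟨kD, al_div MQ kD (by norm_num) (fun _ _ => dvd_zero _) q_alD⟩,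
    List.forall_mem_singleton.2 ⟨kB, aB⟩⟩

theorem node {ys Nw : List ℕ} {X : ℕ} {ex : List (List (List ℕ))} {kids : List Kid}
    (hN : NormBy (cl q ys) (cl q Nw)) (h : band (allL (inA 0x7ffffff) Nw) (band (decide (19 ∈ ys)) (closedB sq Nw X)) = true)
    (hX : orbOK sq 2496 (sing ys) 416 X alB DQ = true) (he : ∀ Y ∈ ex, PP q GQ 604800 (sem 2496 pq DQ) Y)
    (hc : cover sq (sing Nw) (fun kd : Kid => act sq kd.1 (1 <<< 416)) kids BQ = true)
    (hk : allL (kidOK sq sU XU 0x7ffffff ys Nw [19] (1 <<< 416) (1 <<< 416) (2 ^ 416) X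
      (leaf sq 2496 DQ [(DQ, alD), (BQ, alB)] ex)) kids = true) : PP q GQ 604800 (sem 2496 pq DQ) (sing ys) := by
  simp only [band_eq_true, decide_eq_true_eq] at h
  exact branch MQ VQ (Q.inA_top Q.E) kD hN (cl_le_of_inA (Q.inA_top Q.E) h.1)
    (cl_le.2 (List.forall_mem_singleton.2 (ev_mem_cl _ h.2.1))) (by norm_num) (by norm_num)
    (fun k hk => kB k hk _ mB) (fun k _ e => e.symm ▸ (MQ.mem_sem (by norm_num)).2 (by decide +kernel))
    (fun k hk e _ => VQ.normBy q_O k (hQ.le ⟨hk, e⟩))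
    (fun K hK hm hs hx => orbOK_sound MQ aB mB hX hK hm hs fun k hk => (hx k hk).1) h.2.2
    (leaf_sound MQ doms he) hc (allL_sound hk)

theorem goalQ : ∀ K ≤ GQ, Nat.card K = 604800 → Goal K (sem 2496 pq DQ) :=
  haveI : Fact (Nat.Prime 3) := ⟨Nat.prime_three⟩
  (seed_of_pgroup (k := 416) (isPGroup_of_pc VQ q_pc) (cl_le_of_inA (Q.inA_top Q.E) (by decide +kernel)) Q.card_perm
    (by norm_num) (sub_sing.2 le_rfl)).goal (node (VQ.normBy q_N) (by decide +kernel) q_X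
      (List.forall_mem_singleton.2 (PP.red VQ (Q.inA_top Q.E) kD q_red
        (node (VQ.normBy q_N2) (by decide +kernel) q_X2 (by simp) q_cov2 q_k2))) q_cov q_k) kD

local notation "g" => permG 1782 P.W
local notation "pt" => finPt 1782

/-- the Suzuki group on 1782 points -/
noncomputable abbrev GP : Subgroup (Perm (Fin 1782)) := cl g P.top

local notation "H" => St GP (pt 0)

theorem M : SM g 1782 pt st := P.M

theorem hH : H = cl g P.L0.hs := by
  rw [GP, P.top_eq P.E]; exact (P.good_0 P.M P.E).1.stabilizer_eq (P.M.fixes (by decide +kernel))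

theorem cH : Nat.card H = 251596800 := by rw [hH]; exact P.card_1 P.M P.E

theorem hA : InA g 0x1ffffff0 H := hH ▸ P.inA_1 P.E

theorem hg : ∀ m, g m ∈ GP := mem_of_inA (j := 31) (P.inA_top P.E) (by decide +kernel)

theorem V : WM g sT XT :=
  wm_base M (acts_permG P.W_ok) GP hg (fun x hx => P.base_faith P.M P.E x (P.top_eq P.E ▸ hx)) c_base

theorem md : Md g st GP 0x1ffffff0 0 47 1 D E Rb Rc 416 1365 := md_of M hg hH (hH ▸ hA) c_md

theorem goalK : ∀ K ≤ H, Nat.card K = 604800 → Goal K (sem 1782 pt D) := by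
  obtain ⟨e, f, -, h1, h2⟩ := exists_equiv_of_lab (M.words [5, 0, 7]) R.M (allLt_sound c_lab) (K := H)
    (cl_le.2 fun w _ => ev_mem_of_all (ev_nth_mem fun u hu => ev_mem hA (allL_sound (by decide +kernel) u hu)) w)
    (cH.trans R.card_perm.symm).le
  obtain ⟨e', f', h3, h4, h5⟩ := exists_equiv_of_lab MQ R.M (allLt_sound q_lab) (K := GQ) le_rfl
    (Q.card_perm.trans R.card_perm.symm).le
  refine goal_transfer (e.trans e'.symm) (fun y hy => ?_) goalQ
  obtain ⟨i, rfl⟩ := (Set.eq_of_subset_of_ncard_le (Set.range_subset_iff.2 h4) (by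
    rw [MQ.ncard_sem, Set.ncard_range_of_injective h3, Nat.card_fin]; decide +kernel) (sem_finite _ _ _)).ge hy
  refine ⟨f i, h1 i, fun u hu => ?_⟩
  rw [h5, MulEquiv.trans_apply, MulEquiv.apply_symm_apply] at hu
  rw [h2, h3 hu]

theorem exists_iso : ∃ e : Cfsg.Spor.Suz ≃* GP, ∀ x, (e x).1 (pt 0) = pt 0 ↔ Suz.φ x 0 = 0 := by
  have h : ∀ {m w : ℕ}, MultC.wordOK 2048 11 MultC.Suz.V0 (nth Net.nil P.W m) [w] = true →
      MultC.IsReal Cfsg.Spor.Suz 1782 (MultC.ptN Suz.φ) (nth Net.nil P.W m) := fun h =>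
    (MultC.Suz.real0.word (by norm_num) h).imp fun _ hx => ⟨OK_nth P.W_ok _, fun i hi => hx.2 i (by omega)⟩
  obtain ⟨e, he⟩ := MultC.iso_of_real (G := Cfsg.Spor.Suz) (n := 1782) (fun i hi j hj => MultC.Suz.model.inj i (by omega) j (by omega))
    (W := P.W) (top := P.top)
    (List.forall_mem_cons.2 ⟨⟨0, by norm_num, rfl, h c_w0⟩, List.forall_mem_singleton.2 ⟨2, by norm_num, rfl, h c_w1⟩⟩)
    (Suz.card_eq.trans P.card_perm.symm).le
  exact ⟨e, fun x => Fin.ext_iff.trans (Eq.congr_left (he x (pt 0)).symm)⟩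

theorem facts : Facts GP (pt 0) (pt 47) (pt 1) 416 1365 where
  R := md.R
  simple := exists_iso.elim fun e _ => haveI := Suz.simple; e.symm.isSimpleGroup
  hd := by norm_num
  HK := md.HK (s := 604800) cH goalK
  H1 := md.H1 c_H1
  HL := haveI : Fact (Nat.Prime 2) := ⟨Nat.prime_two⟩
    md.HL (s := 184320) cH (seed_of_pgroup (k := 1365) (isPGroup_of_pc V c_pc) (cl_le_of_inA hA (by decide +kernel)) cH
      (by norm_num) (sub_cl _ (by decide +kernel)))
      (List.forall_mem_singleton.2 (md.good Tw.refl (one_smul _ _) c_good)) c_L1 c_L2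
  hinj := md.hinj c_inj
  H2 := md.H2 c_H2
  HA := md.HA M hg c_aut (by rw [P.card_perm])

theorem recog {Ω : Type*} [Fintype Ω] (hΩ : Fintype.card Ω = 1782) (G : Subgroup (Perm Ω)) [IsPretransitive G Ω]
    {a b c : Ω} {K : Type} [Field K] [Fintype K] (hK : Fintype.card K = 4)
    (e : stabilizer G a ≃* Cfsg.Lie.chevG2.group K) (hb : (orbit (stabilizer G a) b).ncard = 416)
    (hc : (orbit (stabilizer G a) c).ncard = 1365) : Nonempty (G ≃* Cfsg.Spor.Suz) := by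
  obtain ⟨f, hf⟩ := exists_iso
  obtain ⟨f'⟩ := Suz.hs_equiv
  obtain ⟨ψ⟩ := facts.recog hΩ G (e.trans ((Stein.groupEquiv _ (FiniteField.ringEquivOfCardEq
    (hK.trans Classical.card_GF4.symm))).trans (f'.symm.trans ((f.subgroupMap _).trans
      ((equivMapOfInjective _ _ (subtype_injective _)).trans (MulEquiv.subgroupCongr (Subgroup.ext fun σ =>
        ⟨by rintro ⟨_, ⟨x, hx, rfl⟩, rfl⟩; exact ⟨(f x).2, (hf x).2 (Suz.hs_eq.le hx)⟩, fun h =>
          ⟨⟨σ, h.1⟩, ⟨f.symm ⟨σ, h.1⟩, Suz.hs_eq.ge ((hf _).1 (by rw [f.apply_symm_apply]; exact h.2)),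
            f.apply_symm_apply _⟩, rfl⟩⟩))))))) hb hc
  exact ⟨ψ.trans f.symm⟩

end CfsgLib.SuzR3
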